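import Cfsg.Prelude.Def_KGroupFacts
import Mathlib.GroupTheory.SpecificGroups.Cyclic
import Mathlib.GroupTheory.Commutator.Basic
import Mathlib.GroupTheory.Abelianization.Defs
set_option linter.all false

/-!
# Central extensions given by bimultiplicative maps

For groups `G`, `A` with `A` commutative and a bimultiplicative map `β : G →* (G →* A)`, the set `G × A` with
`(g, a)(h, b) = (g h, a b β g h)` is a central extension of `G` by `A`.
-/

set_option autoImplicit false

universe u v w

namespace Cfsg.Agent.H486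

open Function
open scoped commutatorElement

section BExt

variable {G : Type u} {A : Type v} [Group G] [CommGroup A]

/-- The central extension of `G` by `A` given by a bimultiplicative map. -/
@[ext] structure BExt (β : G →* (G →* A)) where
  /-- the base component -/
  g : G
  /-- the central component -/
  a : A

namespace BExt

variable (β : G →* (G →* A))

instance instMulBExt : Mul (BExt β) := ⟨fun x y => ⟨x.g * y.g, x.a * y.a * β x.g y.g⟩⟩
instance instOneBExt : One (BExt β) := ⟨⟨1, 1⟩⟩
instance instInvBExt : Inv (BExt β) := ⟨fun x => ⟨x.g⁻¹, x.a⁻¹ * β x.g x.g⟩⟩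

@[simp] theorem mul_g (x y : BExt β) : (x * y).g = x.g * y.g := rfl
@[simp] theorem mul_a (x y : BExt β) : (x * y).a = x.a * y.a * β x.g y.g := rfl
@[simp] theorem one_g : (1 : BExt β).g = 1 := rfl
@[simp] theorem one_a : (1 : BExt β).a = 1 := rfl
@[simp] theorem inv_g (x : BExt β) : (x⁻¹).g = x.g⁻¹ := rfl
@[simp] theorem inv_a (x : BExt β) : (x⁻¹).a = x.a⁻¹ * β x.g x.g := rfl

instance instGroupBExt : Group (BExt β) where
  mul_assoc x y z := by
    ext
    · simp [mul_assoc]
    · simp only [mul_a, mul_g, map_mul, MonoidHom.mul_apply]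
      simp only [mul_comm, mul_left_comm, mul_assoc]
  one_mul x := by
    ext
    · simp
    · simp
  mul_one x := by
    ext
    · simp
    · simp
  inv_mul_cancel x := by
    ext
    · simp
    · simp only [mul_a, inv_a, inv_g, map_inv, MonoidHom.inv_apply, one_a]
      rw [mul_right_comm x.a⁻¹, inv_mul_cancel, one_mul, mul_inv_cancel]

/-- the projection to `G` -/
def proj : BExt β →* G where
  toFun x := x.g
  map_one' := rfl
  map_mul' _ _ := rfl

@[simp] theorem proj_apply (x : BExt β) : proj β x = x.g := rfl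

theorem proj_surjective : Surjective (proj β) := fun g => ⟨⟨g, 1⟩, rfl⟩

instance instFiniteBExt [Finite G] [Finite A] : Finite (BExt β) :=
  Finite.of_injective (fun x : BExt β => (x.g, x.a)) (by
    intro x y h
    ext
    · exact congrArg Prod.fst h
    · exact congrArg Prod.snd h)

/-- the central embedding of `A` -/
def incl : A →* BExt β where
  toFun a := ⟨1, a⟩
  map_one' := rfl
  map_mul' a b := by ext <;> simp

@[simp] theorem incl_g (a : A) : (incl β a).g = 1 := rfl
@[simp] theorem incl_a (a : A) : (incl β a).a = a := rfl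

theorem incl_injective : Injective (incl β) := fun a b h => congrArg BExt.a h

theorem range_incl : (incl β).range = (proj β).ker := by
  ext x
  constructor
  · rintro ⟨a, rfl⟩
    rfl
  · intro hx
    refine ⟨x.a, ?_⟩
    ext
    · exact hx.symm
    · rfl

theorem incl_mem_center (a : A) : incl β a ∈ Subgroup.center (BExt β) := by
  rw [Subgroup.mem_center_iff]
  intro x
  ext
  · simp
  · simp [mul_comm]

theorem ker_le_center : (proj β).ker ≤ Subgroup.center (BExt β) := by
  rw [← range_incl]
  rintro _ ⟨a, rfl⟩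
  exact incl_mem_center β a

/-- the kernel is `A` -/
noncomputable def kerEquiv : (proj β).ker ≃* A :=
  ((MonoidHom.ofInjective (incl_injective β)).trans (MulEquiv.subgroupCongr (range_incl β))).symm

theorem commutator_eq {g h : G} (hgh : g * h = h * g) (a b : A) :
    ⁅(⟨g, a⟩ : BExt β), ⟨h, b⟩⁆ = incl β (β g h * (β h g)⁻¹) := by
  rw [commutatorElement_def, mul_assoc, ← mul_inv_rev, mul_inv_eq_iff_eq_mul]
  ext
  · simp [hgh]
  · simp only [mul_a, incl_a, mul_g, incl_g, map_one, MonoidHom.one_apply, mul_one]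
    rw [show β g h * (β h g)⁻¹ * (b * a * β h g) = (a * b * β g h) * ((β h g)⁻¹ * β h g) by ac_rfl]
    rw [inv_mul_cancel, mul_one]

/-- The extension is a stem extension as soon as the values of the alternating part of `β` at
commuting elements generate `A`. -/
theorem isStemExtension
    (hgen : Subgroup.closure {c : A | ∃ g h : G, g * h = h * g ∧ c = β g h * (β h g)⁻¹} = ⊤) :
    Cfsg.IsStemExtension (proj β) := by
  refine ⟨proj_surjective β, ker_le_center β, ?_⟩
  rw [← range_incl, MonoidHom.range_eq_map, ← hgen, MonoidHom.map_closure, Subgroup.closure_le]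
  rintro _ ⟨_, ⟨g, h, hgh, rfl⟩, rfl⟩
  rw [← commutator_eq β hgh 1 1]
  exact Subgroup.commutator_mem_commutator (Subgroup.mem_top _) (Subgroup.mem_top _)

end BExt

end BExt

section Upper

variable {Γ : Type u} {G : Type v} [Group Γ] [Group G]

/-- If `σ : Γ →* G` has central kernel and `G` is abelian and generated by `σ a` and `σ b`, then the commutator
subgroup of `Γ` is generated by `⁅a, b⁆`. -/
theorem commutator_le_zpowers {σ : Γ →* G} (hc : σ.ker ≤ Subgroup.center Γ)
    (hab : ∀ x y : G, x * y = y * x) (a b : Γ) (hgen : Subgroup.closure {σ a, σ b} = ⊤) :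
    _root_.commutator Γ ≤ Subgroup.zpowers ⁅a, b⁆ := by
  have hcomm : ∀ x y : Γ, ⁅x, y⁆ ∈ Subgroup.center Γ := fun x y => by
    apply hc
    rw [MonoidHom.mem_ker, map_commutatorElement, commutatorElement_eq_one_iff_mul_comm]
    exact hab _ _
  have hN : (Subgroup.zpowers ⁅a, b⁆).Normal := by
    refine ⟨fun n hn g => ?_⟩
    have h1 : n ∈ Subgroup.center Γ := (Subgroup.zpowers_le.2 (hcomm a b)) hn
    rw [Subgroup.mem_center_iff.1 h1 g]
    simpa using hn
  set N := Subgroup.zpowers ⁅a, b⁆ with hNdef
  set q := QuotientGroup.mk' N with hq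
  have hqs : Surjective q := QuotientGroup.mk'_surjective N
  -- the generating set
  set S : Set Γ := {a, b} ∪ (σ.ker : Set Γ) with hS
  have hSgen : Subgroup.closure S = ⊤ := by
    rw [eq_top_iff]
    intro x _
    have h1 : σ x ∈ (Subgroup.closure {a, b}).map σ := by
      rw [MonoidHom.map_closure, Set.image_pair, hgen]
      exact Subgroup.mem_top _
    obtain ⟨y, hy, hyx⟩ := h1
    have h2 : y⁻¹ * x ∈ σ.ker := by rw [MonoidHom.mem_ker, map_mul, map_inv, hyx, inv_mul_cancel]
    have h3 : x = y * (y⁻¹ * x) := by group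
    rw [h3]
    exact Subgroup.mul_mem _ (Subgroup.closure_mono Set.subset_union_left hy)
      (Subgroup.subset_closure (Set.subset_union_right h2))
  have hcab : ⁅q a, q b⁆ = 1 := by
    rw [← map_commutatorElement]
    exact (QuotientGroup.eq_one_iff _).2 (Subgroup.mem_zpowers _)
  have hcentral : ∀ z ∈ σ.ker, ∀ x, q z * q x = q x * q z := by
    intro z hz x
    rw [← map_mul, ← map_mul, (Subgroup.mem_center_iff.1 (hc hz)) x]
  have hpair : ∀ x ∈ q '' S, ∀ y ∈ q '' S, x * y = y * x := by
    have hab' : q a * q b = q b * q a := commutatorElement_eq_one_iff_mul_comm.1 hcab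
    rintro _ ⟨x, hx, rfl⟩ _ ⟨y, hy, rfl⟩
    rcases hx with (rfl | rfl) | hx
    · rcases hy with (rfl | rfl) | hy
      · rfl
      · exact hab'
      · exact (hcentral y hy _).symm
    · rcases hy with (rfl | rfl) | hy
      · exact hab'.symm
      · rfl
      · exact (hcentral y hy _).symm
    · exact hcentral x hx y
  have hall : ∀ x y : Γ ⧸ N, x * y = y * x := by
    have htop : Subgroup.closure (q '' S) = ⊤ := by
      rw [← MonoidHom.map_closure, hSgen, Subgroup.map_top_of_surjective q hqs]
    have h1 : Subgroup.closure (q '' S) ≤ Subgroup.centralizer (Subgroup.closure (q '' S)) := by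
      have := Subgroup.closure_le_centralizer_centralizer (q '' S)
      rw [Subgroup.closure_le]
      intro x hx
      rw [SetLike.mem_coe, Subgroup.mem_centralizer_iff]
      intro y hy
      have h2 : Subgroup.closure (q '' S) ≤ Subgroup.centralizer {x} := by
        rw [Subgroup.closure_le]
        intro z hz
        rw [SetLike.mem_coe, Subgroup.mem_centralizer_iff]
        intro w hw
        rw [Set.mem_singleton_iff] at hw
        rw [hw]
        exact hpair x hx z hz
      exact ((Subgroup.mem_centralizer_iff.1 (h2 hy)) x rfl).symm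
    intro x y
    rw [htop] at h1
    exact (Subgroup.mem_centralizer_iff.1 (h1 (Subgroup.mem_top x)) y (Subgroup.mem_top y)).symm
  rw [commutator_def, Subgroup.commutator_le]
  intro x _ y _
  rw [← QuotientGroup.eq_one_iff]
  change q ⁅x, y⁆ = 1
  rw [map_commutatorElement, commutatorElement_eq_one_iff_mul_comm]
  exact hall _ _

/-- In a group where `⁅a, b⁆` is central, `⁅a, b⁆ ^ n = ⁅a, b ^ n⁆`. -/
theorem commutator_pow_right {a b : Γ} (h : ⁅a, b⁆ ∈ Subgroup.center Γ) (n : ℕ) :
    ⁅a, b ^ n⁆ = ⁅a, b⁆ ^ n := by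
  induction n with
  | zero => simp
  | succ n ih =>
    have h1 : ⁅a, b ^ (n + 1)⁆ = ⁅a, b⁆ * (b * ⁅a, b ^ n⁆ * b⁻¹) := by
      rw [pow_succ']
      simp only [commutatorElement_def, mul_inv_rev]
      group
    have h2 : ⁅a, b⁆ ^ n ∈ Subgroup.center Γ := Subgroup.pow_mem _ h n
    rw [h1, ih, Subgroup.mem_center_iff.1 h2 b, mul_inv_cancel_right, pow_succ']

/-- `⁅a, b⁆ ^ n = 1` if `b ^ n` and `⁅a, b⁆` are central. -/
theorem commutator_pow_eq_one {a b : Γ} (h : ⁅a, b⁆ ∈ Subgroup.center Γ) {n : ℕ}
    (hb : b ^ n ∈ Subgroup.center Γ) : ⁅a, b⁆ ^ n = 1 := by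
  rw [← commutator_pow_right h, commutatorElement_eq_one_iff_mul_comm]
  exact Subgroup.mem_center_iff.1 hb a

/-- A group that is generated by an element of exponent `n` is a quotient of `ZMod n`. -/
theorem exists_surj_zmod {K : Type u} [Group K] (g : K) (hg : ∀ x : K, x ∈ Subgroup.zpowers g) {n : ℕ}
    (hn : g ^ n = 1) : ∃ f : Multiplicative (ZMod n) →* K, Surjective f := by
  let : CommGroup K := { (inferInstance : Group K) with
    mul_comm := fun x y => by
      obtain ⟨k, rfl⟩ := Subgroup.mem_zpowers_iff.1 (hg x)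
      obtain ⟨l, rfl⟩ := Subgroup.mem_zpowers_iff.1 (hg y)
      rw [← zpow_add, ← zpow_add, add_comm] }
  let f : ℤ →+ Additive K := zmultiplesHom _ (Additive.ofMul g)
  have hf : f (n : ℤ) = 0 := by
    change (n : ℤ) • Additive.ofMul g = 0
    rw [natCast_zsmul, ← ofMul_pow, hn, ofMul_one]
  let f' : ZMod n →+ Additive K := ZMod.lift n ⟨f, hf⟩
  refine ⟨AddMonoidHom.toMultiplicativeLeft f', ?_⟩
  intro x
  obtain ⟨k, hk⟩ := Subgroup.mem_zpowers_iff.1 (hg x)
  refine ⟨Multiplicative.ofAdd ((k : ℤ) : ZMod n), ?_⟩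
  change (f' ((k : ℤ) : ZMod n)).toMul = x
  have h4 : f' ((k : ℤ) : ZMod n) = k • Additive.ofMul g := ZMod.lift_coe n ⟨f, hf⟩ k
  rw [h4, ← ofMul_zpow, hk]
  rfl

end Upper

end Cfsg.Agent.H486
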